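import Cfsg.Agent.Lib.S6.NB

/-!
# S3133, normality lemma: `Q` is strongly closed.
-/

set_option autoImplicit false
set_option linter.unusedSectionVars false

namespace Cfsg.Lib.S6.NL

open Subgroup Cfsg.Lib.BG Cfsg.Lib.ES
open scoped commutatorElement Cfsg.Lib.Transfer

variable {G : Type*} [Group G] [Finite G] {N Q Q' Q'' A V S : Subgroup G} {t z a b d k r y : G}

namespace Nl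

variable (h : Nl N t z Q)
include h

/-- `dich`.  If `y` commutes with `d`, `exists_pt` with `V = ⟨y, z⟩`, `S = ⟨d⟩` and `one` give `y ∈ Q`. -/
theorem bad_root (hQ : Pt Q z Q') (hy : y ∈ Q') (y0 : y ∈ 𝐍(Q)) (y1 : y ∉ Q) : Sg Q y ∧ Nat.card (Fx Q z y) = 128 := sorry

/-- Choose a bad `Q'` with `|Q ⊓ N(Q')|` maximal.  For `y`: `W = {k ∈ Q | ⁅k, y⁆ ∈ I}` (`I = Q ⊓ Q'` is normal in `Q`) is a subgroup containing `Q ⊓ N(Q')` and normalizing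
`V = I ⊔ ⟨y⟩ ≤ Q'`; `exists_pt` gives a bad `Q''` with `W ≤ Q ⊓ N(Q'')`. -/
theorem exists_max (hQ : Pt Q z Q'') (hb : ¬ Q'' ⊓ 𝐍(Q) ≤ Q) : ∃ Q', Pt Q z Q' ∧ ¬ Q' ⊓ 𝐍(Q) ≤ Q ∧
    ∀ y ∈ Q' ⊓ 𝐍(Q), y ∉ Q → ∀ k ∈ Q, ⁅k, y⁆ ∈ Q' → k ∈ 𝐍(Q') := sorry

/-- `X = Q ⊓ N(Q')`, `X' = Q' ⊓ N(Q)`, `|X| = |X'|` (`swap`), `⁅X, X'⁆ ≤ I`.  `⁅k, y⁆ ∈ Cm Q z y ≤ Fx Q z y ≤ X` (trivially for `y ∈ I`), and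
`y ↦ ⁅k, y⁆ I` is a homomorphism `X' → X / I` with kernel `I`. -/
theorem onto (hQ : Pt Q z Q') (hm : ∀ y ∈ Q' ⊓ 𝐍(Q), y ∉ Q → ∀ k ∈ Q, ⁅k, y⁆ ∈ Q' → k ∈ 𝐍(Q')) (hk : k ∈ Q) (k1 : k ∉ 𝐍(Q'))
    (ha : a ∈ Q ⊓ 𝐍(Q')) : ∃ y ∈ Q' ⊓ 𝐍(Q), ⁅k, y⁆⁻¹ * a ∈ Q' := sorry

/-- `exists_max`; `k ∈ Q - X` (`wc`); `Fx Q z y ≤ X < Q`, so `|X| ∈ {128, 256}`; `R = Q ⊓ C(X) ≤ Cm Q z y` for all `y ∈ X' - I`.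
`|X| = 128`: `R = Cm Q z y` for all such `y`, `R ⊓ Q' = Z` (`exists_comm`, maximality).  For `a ∈ R - Z`, `onto` gives `a ∈ ⁅k, y⁆ Z`, which commutes with `k`
(`alt`); so `k ∈ Q ⊓ C(R) = X`.
`|X| = 256`: `R = ⟨r, z⟩` has order `4`, `X = Q ⊓ C(r)`, `⁅X, y⁆ ≤ R` (`root`), not in `Z`, so `r ∈ I`.  `x = ⁅k, y⁆ ∉ Q'` centralizes `I ≤ Fx Q z y`, and
`x' = ⁅k, y'⁆`: `⁅k, y y'⁆ = x * (y x' y⁻¹) ∈ x x' R` has square `1` (`Sg`, or it lies in `Z` if `y y' ∈ I`), `R` is central in `X` and elementary (`Cm_sq`), so `x x'` has square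
`1`.  By `onto`, `x ∈ Q ⊓ C(X) = R ≤ Q'`. -/
theorem sc (hQ : Pt Q z Q') : Q' ⊓ 𝐍(Q) ≤ Q := sorry

end Nl

end Cfsg.Lib.S6.NL
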