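import Cfsg.Agent.Lib.S6.NC

/-!
# S3133, normality lemma: `Q` is normal in `C(z)`.
-/

set_option autoImplicit false
set_option linter.unusedSectionVars false

namespace Cfsg.Lib.S6.NL

open Subgroup Cfsg.Lib.BG Cfsg.Lib.ES
open scoped commutatorElement Cfsg.Lib.Transfer

variable {G : Type*} [Group G] [Finite G] {N Q Q' Q'' A V S : Subgroup G} {t z a b d k r y : G}

/-- `v = (a b) ^ m a` where `(a b) ^ (2 m + 1) ∈ I`: modulo `I`, `v a v⁻¹ = (a b) ^ (2 m) a = b` and `t v t⁻¹ = (b a) ^ m b = v`.  Also `v` is conjugate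
to `a` or `b` (`ZD.refl_conj` in `H ⧸ I`). -/
theorem dih_mid {H I : Subgroup G} (hI : H ≤ 𝐍(I)) (ha : a ∈ H) (ht : t ∈ H) (a2 : a * a ∈ I) (t2 : t * t = 1) {n : ℕ} (hn : Odd n)
    (e : (a * (t * a * t⁻¹)) ^ n ∈ I) : ∃ v ∈ H, (v * a * v⁻¹)⁻¹ * (t * a * t⁻¹) ∈ I ∧ ⁅t, v⁆ ∈ I ∧ ∃ g ∈ H, (g * a * g⁻¹)⁻¹ * v ∈ I := sorry

/-- `I` is a maximal intersection of two points. -/
structure Mx (Q : Subgroup G) (z : G) (I : Subgroup G) : Prop where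
  ex : ∃ Q₁ Q₂, Pt Q z Q₁ ∧ Pt Q z Q₂ ∧ Q₁ ≠ Q₂ ∧ I = Q₁ ⊓ Q₂
  mx : ∀ Q₁ Q₂, Pt Q z Q₁ → Pt Q z Q₂ → Q₁ ≠ Q₂ → I ≤ Q₁ → I ≤ Q₂ → Q₁ ⊓ Q₂ ≤ I

namespace Nl

variable (h : Nl N t z Q) {I : Subgroup G}
include h

/-- `sc` for the point `Q''`, maximality. -/
theorem mx_fix (m : Mx Q z I) (h1 : Pt Q z Q') (h2 : Pt Q z Q'') (i1 : I ≤ Q') (i2 : I ≤ Q'') (ha : a ∈ Q') (a1 : a ∉ I)
    (e : a ∈ 𝐍(Q'')) : Q'' = Q' := sorry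

/-- In `H ⧸ I`, `H = N(I) ⊓ C(z)`: if the order of `a b` is even, the central involution `w` of the dihedral group commutes with `a`, so normalizes `Q'` (`mx_fix`:
`a` lies in `w ⋆ Q'`), and likewise `Q''`.  `w a` is conjugate to `a` or `b`, so lies in a point above `I`, which is `Q'` (`mx_fix`): `w ∈ Q'`.  Likewise `w ∈ Q''`. -/
theorem mx_odd (m : Mx Q z I) (h1 : Pt Q z Q') (h2 : Pt Q z Q'') (n : Q' ≠ Q'') (i1 : I ≤ Q') (i2 : I ≤ Q'') (ha : a ∈ Q') (a1 : a ∉ I)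
    (hb : b ∈ Q'') (b1 : b ∉ I) : ∃ n, Odd n ∧ (a * b) ^ n ∈ I := sorry

/-- `Φ = {points above I}` has odd order: `a ∈ Q₁ - I` permutes `Φ` as an involution with the unique fixed point `Q₁`.  The element `s` of `swap` normalizes
`I = Q₁ ⊓ Q₂`, so fixes a point of `Φ`. -/
theorem mx_pt (m : Mx Q z I) : ∃ d Q', Zt t z d ∧ Pt Q z Q' ∧ I ≤ Q' ∧ d ∈ 𝐍(Q') ∧ d ∈ 𝐍(I) := sorry

/-- `a ∈ Q - I`, `b ∈ Q' - I` for another point `Q' ≥ I`, `x = (a b) ^ 2 ^ j` of odd order.  `a, b` centralize `I / Z`, so `x * x` centralizes `I`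
(`x i x⁻¹ ∈ i Z`), `x * x ∈ N ⊓ C(Fx) ≤ Q` is a `2`-element, `x = 1`.  With `mx_odd`: `a b ∈ I`, `b ∈ Q ⊓ Q' ≤ I`. -/
theorem mx_not (m : Mx Q z I) (i : I ≤ Q) : ¬ Fx Q z t ≤ I := sorry

/-- Let `ρ ∈ I ⊓ C(I)`, `b ∈ Q' - I`.  Elements of `Q`, `Q'` map `ρ` to `ρ` or `ρ z`.  For `k ∈ Q - I` an odd power of `k b` centralizes `ρ` (`mx_odd`), so `k b` does.
Hence `k k'` centralizes `ρ` for `k, k' ∈ Q - I`, and every element of `Q - I` is such a product as `|Q : I| ≥ 4`. -/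
theorem mx_rad (m : Mx Q z I) (i : I ≤ Q) (c : 4 * Nat.card I ≤ Nat.card Q) : I ⊓ 𝐂(I) ≤ zpowers z := sorry

/-- If `|Q : I| = 2` then `⁅Q, t⁆ ≤ I`, so `Fx = Cm ≤ I` (`exists_comm`): `mx_not`.  Otherwise `Q = I (Q ⊓ C(I))` (`mx_rad`, `perp_card`).  Let `α ≠ Q` be a point above `I`,
`a ∈ α - I`, `t ⋆ α ≠ α` (`one`), `v` from `mx_odd`, `dih_mid`: `v ⋆ α = t ⋆ α` (`mx`), `v ∈ Q₁ - I` for a point `Q₁ ≥ I`, `t ⋆ Q₁ ∋ t v t⁻¹ ∈ v I`, so `t` normalizes `Q₁ = Q`.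
Write `v = v' i`, `v' ∈ Q ⊓ C(I)`; `⁅v', t⁆ ∈ I ⊓ C(I) ≤ Z`.  By `conj_t`, `v' t` or `v' z t` is in the class of `t`; it normalizes `Q` and `α` (`v' ⋆ α = t ⋆ α`, `v' * v' ∈ Z`). -/
theorem mx_false (m : Mx Q z I) (i : I ≤ Q) (ti : t ∈ 𝐍(I)) : False := sorry

/-- If there are two points, take `I` of maximal order; `mx_pt`, `of_fix`, `mx_false` (`Mx` does not depend on the base point). -/
theorem normal : 𝐂[z] ≤ 𝐍(Q) := sorry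

end Nl

end Cfsg.Lib.S6.NL
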